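import Cfsg.Agent.Lib.CharTheory.Linear
import Cfsg.Agent.Lib.Frobenius.Induce
import Cfsg.Agent.Lib.Brauer.IndCalc
import Cfsg.Agent.Lib.Brauer.CharRing

/-!
# Artin induction
-/

set_option autoImplicit false
set_option linter.unusedSectionVars false
set_option linter.style.haveILetI false

open scoped ComplexConjugate
open Cfsg

namespace CfsgLib.CharTheory

universe u

open scoped Classical in
/-- `|B|` on the generators of `B`, `0` elsewhere. -/
noncomputable def generatorFun (B : Type u) [Group B] : B → ℂ :=
  fun b => if Subgroup.zpowers b = ⊤ then (Nat.card B : ℂ) else 0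

open scoped Classical in
theorem extendByZero_generatorFun {G : Type u} [Group G] (B : Subgroup G) (y : G) :
    extendByZero B (generatorFun B) y = if Subgroup.zpowers y = B then (Nat.card B : ℂ) else 0 := by
  by_cases hy : y ∈ B
  · rw [CfsgLib.Frobenius.extendByZero_of_mem B _ hy, generatorFun]
    refine if_congr ?_ rfl rfl
    constructor
    · intro h
      have := congrArg (Subgroup.map B.subtype) h
      rwa [MonoidHom.map_zpowers, ← MonoidHom.range_eq_map, Subgroup.range_subtype] at this
    · intro h
      apply Subgroup.map_injective B.subtype_injective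
      rw [MonoidHom.map_zpowers, ← MonoidHom.range_eq_map, Subgroup.range_subtype]
      exact h
  · rw [CfsgLib.Frobenius.extendByZero_of_not_mem B _ hy,
      if_neg fun h : Subgroup.zpowers y = B => hy (h ▸ Subgroup.mem_zpowers y)]

/-- Artin's identity: `|G| · 1` is the sum of the functions induced from the `generatorFun`s. -/
theorem sum_indFun_generatorFun {G : Type u} [Group G] [Fintype G] [Fintype (Subgroup G)] (g : G) :
    ∑ B : Subgroup G, indFun B (generatorFun B) g = (Nat.card G : ℂ) := by
  classical
  have hone : ∀ (B : Subgroup G), indFun B (generatorFun B) g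
      = ∑ x : G, if Subgroup.zpowers (x⁻¹ * g * x) = B then (1 : ℂ) else 0 := by
    intro B
    rw [indFun, Finset.mul_sum]
    refine Finset.sum_congr rfl fun x _ => ?_
    rw [extendByZero_generatorFun]
    have hB : (Nat.card B : ℂ) ≠ 0 := Nat.cast_ne_zero.2 Nat.card_pos.ne'
    split_ifs with h
    · exact inv_mul_cancel₀ hB
    · exact mul_zero _
  simp only [hone]
  rw [Finset.sum_comm]
  simp [Nat.card_eq_fintype_card]

theorem isGeneralizedCharacter_generatorFun (G : Type u) [Group G] [Finite G] :
    IsGeneralizedCharacter G (generatorFun G) := by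
  induction h : Nat.card G using Nat.strong_induction_on generalizing G with
  | _ n ih =>
    subst h
    classical
    haveI := Fintype.ofFinite G
    haveI := Fintype.ofFinite (Subgroup G)
    have hT : indFun (⊤ : Subgroup G) (generatorFun (⊤ : Subgroup G)) = generatorFun G := by
      funext g
      rw [indFun]
      simp only [extendByZero_generatorFun, Subgroup.card_top, generatorFun]
      have hcl : ∀ x : G, (Subgroup.zpowers (x⁻¹ * g * x) = ⊤) ↔ Subgroup.zpowers g = ⊤ := by
        intro x
        have he : x⁻¹ * g * x = MulAut.conj x⁻¹ g := by simp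
        rw [he, show Subgroup.zpowers (MulAut.conj x⁻¹ g)
            = (Subgroup.zpowers g).map (MulAut.conj x⁻¹).toMonoidHom from
          (MonoidHom.map_zpowers (MulAut.conj x⁻¹).toMonoidHom g).symm]
        have htop : (⊤ : Subgroup G).map (MulAut.conj x⁻¹).toMonoidHom = ⊤ :=
          Subgroup.map_top_of_surjective _ (MulAut.conj x⁻¹).surjective
        refine ⟨fun h => Subgroup.map_injective (MulAut.conj x⁻¹).injective (h.trans htop.symm),
          fun h => by rw [h, htop]⟩
      simp only [hcl, Finset.sum_const, Finset.card_univ, nsmul_eq_mul]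
      have hG : (Nat.card G : ℂ) ≠ 0 := Nat.cast_ne_zero.2 Nat.card_pos.ne'
      rw [Fintype.card_eq_nat_card, ← mul_assoc, inv_mul_cancel₀ hG, one_mul]
    have hsplit : generatorFun G = (Nat.card G : ℂ) • (fun _ : G => (1 : ℂ))
        - ∑ B ∈ Finset.univ.erase (⊤ : Subgroup G), indFun B (generatorFun B) := by
      rw [eq_sub_iff_add_eq, ← hT, Finset.add_sum_erase _
        (fun B : Subgroup G => indFun B (generatorFun B)) (Finset.mem_univ _)]
      funext g
      rw [Finset.sum_apply, sum_indFun_generatorFun]
      simp
    rw [hsplit]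
    refine CfsgLib.Brauer.isGeneralizedCharacter_sub ?_
      (CfsgLib.Coherence.isGeneralizedCharacter_sum _ _ fun B hB => ?_)
    · exact CfsgLib.Brauer.isGeneralizedCharacter_of_isCharacter
        (isCharacter_nsmul (IsIrrCharacter.isCharacter isIrrCharacter_one) _)
    · refine CfsgLib.Frobenius.isGeneralizedCharacter_indFun B _ (ih _ ?_ B rfl)
      exact lt_of_le_of_ne (Subgroup.card_le_card_group B) fun e =>
        (Finset.mem_erase.1 hB).1 (Subgroup.eq_top_of_card_eq B e)

/-- A character of an abelian group, induced up, is an integral combination of induced linear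
characters. -/
theorem indFun_mem_closure_linear {G : Type u} [Group G] [Fintype G] (A : Subgroup G)
    (hA : ∀ a b : A, a * b = b * a) {φ : A → ℂ} (hφ : IsGeneralizedCharacter A φ)
    (S : AddSubgroup (G → ℂ)) (hS : ∀ l : A →* ℂˣ, indFun A (fun a => (l a : ℂ)) ∈ S) :
    indFun A φ ∈ S := by
  classical
  haveI : Fintype (IrrCharacter A) := Fintype.ofFinite _
  obtain ⟨m, rfl⟩ := isGeneralizedCharacter_iff_exists_sum.1 hφ
  rw [CfsgLib.Frobenius.indFun_sum]
  refine sum_mem fun ψ _ => ?_
  rw [CfsgLib.Frobenius.indFun_smul, Int.cast_smul_eq_zsmul]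
  refine zsmul_mem ?_ _
  have h1 : (ψ : A → ℂ) 1 = 1 := by
    obtain ⟨n, ρ, hρ, he⟩ := ψ.2
    haveI : IsMulCommutative A := ⟨⟨hA⟩⟩
    rw [← he, ρ.char_one,
      Representation.IsIrreducible.finrank_eq_one_of_isMulCommutative ρ, Nat.cast_one]
  obtain ⟨l, hl⟩ := exists_hom_of_degree_one ψ.2 h1
  rw [hl]
  exact hS l

/-- Artin induction: `|G| χ` is an integral combination of characters induced from linear
characters of cyclic subgroups. -/
theorem card_smul_mem_closure_cyclic {G : Type u} [Group G] [Fintype G] {χ : G → ℂ}
    (hχ : IsGeneralizedCharacter G χ) :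
    (Nat.card G : ℂ) • χ ∈ AddSubgroup.closure
      {f : G → ℂ | ∃ (A : Subgroup G) (l : A →* ℂˣ), IsCyclic A ∧
        f = indFun A (fun a => (l a : ℂ))} := by
  classical
  haveI := Fintype.ofFinite (Subgroup G)
  have h : (Nat.card G : ℂ) • χ
      = ∑ B : Subgroup G, indFun B ((fun b : B => χ b) * generatorFun B) := by
    funext g
    rw [Finset.sum_apply, Pi.smul_apply, smul_eq_mul]
    rw [Finset.sum_congr rfl (g := fun B => χ g * indFun B (generatorFun B) g) (fun B _ => by
      rw [show (fun b : B => χ b) * generatorFun B = fun b : B => χ b * generatorFun B b from rfl,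
        CfsgLib.Brauer.indFun_res_mul _ _ (IsGeneralizedCharacter.isClassFunction hχ)]; rfl),
      ← Finset.mul_sum, sum_indFun_generatorFun, mul_comm]
  rw [h]
  refine sum_mem fun B _ => ?_
  by_cases hB : IsCyclic B
  · refine indFun_mem_closure_linear B (fun a b => mul_comm' a b) ?_ _ fun l =>
      AddSubgroup.subset_closure ⟨B, l, hB, rfl⟩
    exact CfsgLib.Brauer.isGeneralizedCharacter_mul
      (CfsgLib.Brauer.isGeneralizedCharacter_res hχ B) (isGeneralizedCharacter_generatorFun B)
  · have hz : generatorFun B = 0 := funext fun b => by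
      rw [generatorFun, if_neg fun e : Subgroup.zpowers b = ⊤ =>
        hB ⟨b, fun x => Subgroup.mem_zpowers_iff.1 (e ▸ Subgroup.mem_top x)⟩]
      rfl
    rw [hz, mul_zero, CfsgLib.Frobenius.indFun_zero]
    exact zero_mem _

end CfsgLib.CharTheory
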